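import Mathlib
import Cfsg.Agent.FinS.Defs

/-! Control of fusion with one exceptional class of involutions: definitions. -/

set_option autoImplicit false

namespace Cfsg.Agent.FinS

open Subgroup Cfsg.Agent.PLocal.Amb
open scoped commutatorElement

variable {G : Type*} [Group G]

/-- `x` commutes with an `N(G₀)`-conjugate of `t` -/
def Ty (G0 : Subgroup G) (t x : G) : Prop := ∃ k ∈ 𝐍[G0], Commute x (k * t * k⁻¹)

/-- `Base` without `cen`, and with a weaker splitting hypothesis. -/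
structure Base2 (X G0 S0 : Subgroup G) (t : G) : Prop where
  u : Uf 𝐍[G0] t
  nrm : X.Normal
  perf : ⁅X, X⁆ = X
  le : G0 ≤ X
  syl : IsSyl 2 S0 G0
  tn : t ∉ G0
  ab : ∀ x ∈ ⁅𝐍[G0], 𝐍[G0]⁆, x * x = 1 → x ∈ G0
  spl : ∀ p ∈ 𝐍[G0], (∃ k : ℕ, p ^ 2 ^ k = 1) → p * p ∈ G0 → ∃ l ∈ G0, p * l * (p * l) = 1

/-- The exceptional class of involutions `x₀`; `w = x₀ x₀^t`. -/
structure Ex (G0 : Subgroup G) (z t x0 w : G) : Prop where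
  cen : ∀ x ∈ 𝐍[G0], x * x = 1 → Ty G0 t x ∨ ∃ k ∈ 𝐍[G0], x = k * x0 * k⁻¹
  sq : x0 * x0 = 1
  com : Commute x0 (t * x0 * t⁻¹)
  eq : w = x0 * (t * x0 * t⁻¹)
  nw : w ∉ Rt G0 z
  b : ∀ y ∈ Rt G0 z, y * w * (y * w) = 1 → Ty G0 t (y * w)
  c : ∀ y ∈ Rt G0 z, Commute y w → y * w ∈ Rt G0 z →
    ∃ k ∈ 𝐍[G0], Commute y (k * t * k⁻¹) ∧ Commute w (k * t * k⁻¹)
  prod : ∃ E : Subgroup G, IsPGroup 2 E ∧ E ≤ centralizer {x0} ∧ x0 ∈ closure (E ∩ Rt G0 z)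

end Cfsg.Agent.FinS
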