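import Mathlib
import Cfsg.Agent.FinS.Defs
import Cfsg.Agent.SLE.Lead

/-! Root elements and root groups in the types `E₆`, `E₇`, `E₈`.  θ = hi T. -/

set_option autoImplicit false
set_option linter.unusedSectionVars false
set_option linter.unusedVariables false

namespace Cfsg.Agent.FinE

open Cfsg.Lie Cfsg.Agent.Chev Cfsg.Agent.SLE Subgroup Cfsg.Agent.PLocal.Amb
open scoped commutatorElement

variable {D : ChevalleyDatum} {T : RootTable D}
variable {E : Type*} [Field E] [Finite E] [CharP E 2] {G : Type*} [Group G] [Finite G]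
  {y : ℕ → E → G}

/-- the elements of one root group -/
theorem mem_XS_one (h : Lie T y) {r : ℕ} (hr : r < 2 * T.N) {g : G} :
    g ∈ XS y {r} ↔ ∃ a, g = y r a := by
  exact h.st.toIsSt0.mem_XS_singleton (T.lt_iff.2 hr)

/-- PROOF. Bruhat `k = u n u'` (`Lie.bruhat`), `u'` centralises `X_θ` (`Rg.hi_comm`), `Acts`. -/
theorem rg_rep (h : Lie T y) {k : G} (hk : k ∈ Gs D y) : ∃ u ∈ Us D y, ∃ r < 2 * T.N, ∃ c : E,
    c ≠ 0 ∧ ∀ a, k * y (hi T) a * k⁻¹ = u * y r (c * a) * u⁻¹ := by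
  obtain ⟨u, hu, n, -, w, hw, u', hu', rfl⟩ := h.bruhat hk
  obtain ⟨c, hc, e⟩ := hw.conj (hi_lt T)
  refine ⟨u, hu, _, T.act_lt w (hi_lt T), c, hc, fun a => ?_⟩
  rw [← e, mul_assoc (u * n), ← (Rg.hi_comm h.sl h.st.toIsSt0 a hu').eq]
  group

/-- PROOF. `U ⊓ V = 1` (`IsND.tri`), `x_inj`. -/
theorem pos_of_mem (h : Lie T y) {r : ℕ} (hr : r < 2 * T.N) {a : E} (ha : a ≠ 0)
    (hm : y r a ∈ Us D y) : T.N ≤ r := by
  by_contra hc
  exact ha (h.nd.x_not_mem_Bs (not_le.1 hc) (Us_le_Bs hm))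

/-- PROOF. `hh d a` with `<d,θ> = 1` (`SL.exists_col`) moves `y θ 1` to `y θ a`; `tr0`, `AE.ex`. -/
theorem rt_x (h : Lie T y) {r : ℕ} (hr : r < 2 * T.N) {a : E} (ha : a ≠ 0) :
    y r a ∈ FinS.Rt (Gs D y) (y (hi T) 1) := by
  obtain ⟨d, hd, e⟩ := h.sl.exists_col (hi_lt T)
  obtain ⟨w, rfl⟩ := h.sl.tr0 _ (hi_lt T) r hr
  obtain ⟨g, hg⟩ := AE.ex (T := T) h.st w
  refine ⟨g * hh D y d a, mul_mem (Rg.ae_G hg) (T.Hs_le_Gs (hh_mem_Hs (T.lt_iff.2 hd) ha)), ?_⟩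
  have := h.st.hh_conj T hd (hi_lt T) ha 1
  rw [e, zpow_one, mul_one] at this
  rw [← hg.conj _ (hi_lt T), ← this]
  group

theorem rg_x (h : Lie T y) {r : ℕ} (hr : r < 2 * T.N) :
    XS y {r} ∈ FinS.Rg (Gs D y) (XS y {hi T}) := by
  obtain ⟨w, rfl⟩ := h.sl.tr0 _ (hi_lt T) r hr
  obtain ⟨g, hg⟩ := AE.ex (T := T) h.st w
  refine ⟨g, Rg.ae_G hg, Subgroup.ext fun x => ?_⟩
  simp only [mem_cj_iff_exists, mem_XS_one h hr, mem_XS_one h (hi_lt T)]
  exact ⟨fun ⟨a, e⟩ => ⟨_, ⟨a, rfl⟩, (hg.conj _ (hi_lt T) a).trans e.symm⟩,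
    fun ⟨_, ⟨a, rfl⟩, e⟩ => ⟨a, e.symm.trans (hg.conj _ (hi_lt T) a)⟩⟩

omit [Finite G] in
theorem rt_conj {G0 : Subgroup G} {z x k : G} (hx : x ∈ FinS.Rt G0 z) (hk : k ∈ G0) :
    k * x * k⁻¹ ∈ FinS.Rt G0 z := by
  obtain ⟨g, hg, rfl⟩ := hx
  exact ⟨k * g, mul_mem hk hg, by group⟩

/-- PROOF. `SL.exists_sub` gives `Sm r d s`; `SL.conj` with `y d (b / a)`. -/
theorem rt_col (h : Lie T y) {r s : ℕ} (hr : r < 2 * T.N) (hs : s < 2 * T.N)
    (e : D.pairing r s = 1) {a : E} (ha : a ≠ 0) (b : E) :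
    y r a * y s b ∈ FinS.Rt (Gs D y) (y (hi T) 1) := by
  obtain ⟨d, hd⟩ := h.sl.exists_sub hr hs e
  have := rt_conj (rt_x h hr ha) (Rg.xG hd.hs (b / a))
  rwa [h.st.toIsSt0.x_inv (T.lt_iff.2 hd.hs), h.sl.conj h.st.toIsSt0 hd, mul_div_cancel₀ b ha] at this

theorem simple_pair_aux (H : SL T) (s : ℕ) : T.N ≤ s → s < 2 * T.N → ∀ i : Fin D.rank,
    D.cartan i s = 0 → ∃ (w : T.W) (i' j : Fin D.rank), i' ≠ j ∧
      T.act w (D.simple i) = D.simple i' ∧ T.act w s = D.simple j := by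
  induction s using Nat.strong_induction_on with
  | _ s ih =>
  intro h1 hs i e
  obtain ⟨k, hk, -⟩ := T.exists_descent h1 hs
  have hik : k ≠ i := by
    rintro rfl
    omega
  by_cases hsk : s = D.simple k
  · exact ⟨1, i, k, hik.symm, T.act_one _, by rw [T.act_one, hsk]⟩
  have hi := T.simple_lt i
  have hk1 : D.cartan k s = 1 := by
    have := H.le_one _ (T.simple_lt k) s hs hsk
    rw [T.pairing_simple] at this
    omega
  have p1 := T.refl_pos k s h1 hs hsk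
  have p2 := T.refl_lt k s hs
  have p3 := T.refl_lt_self hs hk
  have p4 := T.cartan_refl k i hs
  have sy : cm D i k = cm D k i := by
    have := H.symm _ hi _ (T.simple_lt k)
    rwa [T.pairing_simple, T.pairing_simple] at this
  have lo : -1 ≤ cm D k i := by
    have := H.neg_one_le (T.simple_lt k) hi fun e' => by
      have := T.N_le_simple i
      have := T.neg_lt_N (T.N_le_simple k) (T.simple_lt k)
      omega
    rwa [T.pairing_simple] at this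
  rcases (by have := T.isCartan.off k i hik; omega : cm D k i = 0 ∨ cm D k i = -1) with c | c
  · obtain ⟨w, i', j, h, e1, e2⟩ := ih _ p3 p1 p2 i (by rw [p4, e, sy, c]; simp)
    refine ⟨w * T.cs.simple k, i', j, h, ?_, by rw [T.act_mul, T.act_simple k hs, e2]⟩
    rw [T.act_mul, T.act_simple k hi, T.refl_eq_self hi c, e1]
  have p5 : D.cartan i (D.reflectRoot k s) = 1 := by rw [p4, e, hk1, sy, c]; simp
  have p6 : D.reflectRoot k s ≠ D.simple i := fun e' => by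
    rw [e', T.cartan_self] at p5
    omega
  have p7 : D.reflectRoot i (D.reflectRoot k (D.simple i)) = D.simple k := by
    refine T.vec_inj (T.refl_lt _ _ (T.refl_lt _ _ hi)) (T.simple_lt k) ?_
    rw [T.vec_refl' i _ (T.refl_lt _ _ hi), T.vec_refl' k _ hi, T.cartan_refl k i hi, T.cartan_self,
      sy, show D.cartan k (D.simple i) = -1 from c, c, T.vec_simple, T.vec_simple]
    simp
  obtain ⟨w, i', j, h, e1, e2⟩ := ih _ ((T.refl_lt_self p2 (by omega)).trans p3)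
    (T.refl_pos i _ p1 p2 p6) (T.refl_lt _ _ p2) k (by
      rw [T.cartan_refl i k p2, p5, T.cartan_refl k k hs, hk1, c, T.isCartan.diag]
      simp)
  refine ⟨w * (T.cs.simple i * T.cs.simple k), i', j, h, ?_, ?_⟩
  · rw [T.act_mul, T.act_mul, T.act_simple k hi, T.act_simple i (T.refl_lt _ _ hi), p7, e1]
  · rw [T.act_mul, T.act_mul, T.act_simple k hs, T.act_simple i p2, e2]

/-- PROOF. Move `r` to a simple root (`tr0`), make `s` positive (reflection in `s` fixes `r`), and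
induct on the height (or index) of `s`: if `s` is not simple there is a simple `α ≠ s` with
`<s,α> = 1`.  If `<r,α> = 0` apply `w_α`.  If `<r,α> = -1` apply `w_r w_α`: `r ↦ α`,
`s ↦ s - α - r` (positive as `s - α ≠ r`). -/
theorem exists_simple_pair (H : SL T) {r s : ℕ} (hr : r < 2 * T.N) (hs : s < 2 * T.N)
    (e : D.pairing r s = 0) : ∃ (w : T.W) (i j : Fin D.rank), i ≠ j ∧ T.act w r = D.simple i ∧
      T.act w s = D.simple j := by
  obtain ⟨w, i, rfl⟩ := T.exists_act_simple hr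
  obtain ⟨s, rfl⟩ := (T.act w).surjective s
  replace hs : s < 2 * T.N := T.act_inv_act w s ▸ T.act_lt w⁻¹ hs
  have hi := T.simple_lt i
  rw [T.pairing_act w hi hs] at e
  rcases le_or_gt T.N s with h1 | h1
  · obtain ⟨v, i', j, h, e1, e2⟩ := simple_pair_aux H s h1 hs i (by rwa [← T.pairing_simple])
    exact ⟨v * w⁻¹, i', j, h, by rw [T.act_mul, T.act_inv_act, e1],
      by rw [T.act_mul, T.act_inv_act, e2]⟩
  · obtain ⟨v, i', j, h, e1, e2⟩ := simple_pair_aux H _ (T.N_le_neg h1) (T.neg_lt hs) i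
      (by rw [T.cartan_neg i hs, ← T.pairing_simple, e, neg_zero])
    refine ⟨v * (T.rw s * w⁻¹), i', j, h, ?_, ?_⟩
    · rw [T.act_mul, T.act_mul, T.act_inv_act,
        T.act_rw_of_orth hs hi (by rw [H.symm s hs _ hi, e]), e1]
    · rw [T.act_mul, T.act_mul, T.act_inv_act, T.act_rw_self hs, e2]

theorem idl_simple (i : Fin D.rank) : Idl T id (Pos T \ {D.simple i}) := by
  refine ⟨Set.sdiff_subset, fun _ h => h, fun r s k e hr hs => ⟨⟨e.pos hr.1.1 hs, e.hk⟩, ?_⟩⟩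
  rintro rfl
  have h1 := T.vec_nonneg r hr.1.1 e.hr
  have h2 := T.vec_nonneg s hs e.hs
  have h3 : ∀ j, T.vec r j + T.vec s j = if j = i then 1 else 0 := fun j => by
    have := congrFun e.eq j
    rw [T.vec_simple, sroot, Pi.single_apply] at this
    exact this.symm
  by_cases h : T.vec s i = 0
  · refine T.vec_ne_zero e.hs (funext fun j => ?_)
    have := h1 j
    have := h2 j
    have := h3 j
    split_ifs at this with hj
    · rw [hj, h]
      rfl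
    · simp only [Pi.zero_apply] at *
      omega
  · refine T.vec_ne_zero e.hr (funext fun j => ?_)
    have := h1 j
    have := h2 j
    have := h3 j
    simp only [Pi.zero_apply] at *
    split_ifs at this with hj
    · subst hj
      omega
    · omega

/-- PROOF. Wlog `r = α_i`, `s = α_j` (`exists_simple_pair`, `AE.ex`).  By `rg_rep` the product is
`u y_k(c) u⁻¹`, `k` positive (`pos_of_mem`), say `k ≠ α_i`.  `C = Pos ∖ {α_i}` is an ideal
(`Idl T id`), `XS C` is normalised by `U` and contains `y_k(c)`, `y_{α_j}(b)`, so `y_{α_i}(a)`;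
`uniq_one`. -/
theorem not_rt_orth (h : Lie T y) {r s : ℕ} (hr : r < 2 * T.N) (hs : s < 2 * T.N)
    (e : D.pairing r s = 0) {a b : E} (ha : a ≠ 0) (hb : b ≠ 0) :
    y r a * y s b ∉ FinS.Rt (Gs D y) (y (hi T) 1) := by
  intro hx
  have h0 := h.st.toIsSt0
  obtain ⟨w, i, j, hij, e1, e2⟩ := exists_simple_pair h.sl hr hs e
  obtain ⟨g, hg⟩ := AE.ex (T := T) h.st w
  obtain ⟨k, hk, e3⟩ := rt_conj hx (Rg.ae_G hg)
  obtain ⟨u, hu, ρ, hρ, c, hc, e4⟩ := rg_rep h hk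
  rw [← conj_mul, hg.conj r hr, hg.conj s hs, e1, e2, e4, mul_one] at e3
  have hU : ∀ i : Fin D.rank, ∀ a, y (D.simple i) a ∈ Us D y := fun i =>
    T.mem_Us' (T.N_le_simple i) (T.simple_lt i)
  have hp : T.N ≤ ρ := pos_of_mem h hρ hc (by
    have := mul_mem (mul_mem (inv_mem hu) (e3 ▸ mul_mem (hU i a) (hU j b))) hu
    simpa [mul_assoc] using this)
  have key : ∀ (i j : Fin D.rank) a b, i ≠ j → ρ ≠ D.simple i →
      y (D.simple i) a * y (D.simple j) b = u * y ρ c * u⁻¹ → a = 0 := fun i j a b hij hi e => by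
    have I := idl_simple (T := T) i
    refine uniq_one h.sl h.nd h0 I.pos (I.closed h.sl) ⟨T.N_le_simple i, T.simple_lt i⟩
      (fun hm => hm.2 rfl) ?_
    rw [← mul_mem_cancel_right (mem_XS (S := Pos T \ {D.simple i})
      ⟨⟨T.N_le_simple j, T.simple_lt j⟩, fun e' => hij (T.simple_injective e').symm⟩ b), e]
    exact Chev.conj_mem_of_mem_normalizer (I.norm h.sl h0 hu) (mem_XS (And.intro ⟨hp, hρ⟩ hi) c)
  by_cases hi : ρ = D.simple i
  · refine hb (key j i b a hij.symm (fun e' => hij (T.simple_injective (hi.symm.trans e'))) ?_)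
    rw [← e3]
    refine (h.sl.com h0 (T.simple_lt i) (T.simple_lt j) ?_ a b).eq.symm
    rw [← e1, ← e2, T.pairing_act w hr hs, e]
  · exact ha (key i j a b hij hi e3)

/-- PROOF. `rg_rep`: `u y_r(c a) u⁻¹ = y_θ(b)`, so `y_r(c a) = y_θ(b)`, `r = θ` (`pos_of_mem`,
`indep`). -/
theorem lin_hi (h : Lie T y) {k : G} (hk : k ∈ Gs D y) {a b : E} (ha : a ≠ 0)
    (e : k * y (hi T) a * k⁻¹ = y (hi T) b) :
    ∃ c : E, c ≠ 0 ∧ ∀ a', k * y (hi T) a' * k⁻¹ = y (hi T) (c * a') := by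
  obtain ⟨u, hu, r, hr, c, hc, e1⟩ := rg_rep h hk
  have cm : ∀ b, u * y (hi T) b * u⁻¹ = y (hi T) b := fun b => by
    rw [← (Rg.hi_comm h.sl h.st.toIsSt0 b hu).eq, mul_inv_cancel_right]
  rw [e1, ← cm b, mul_left_inj, mul_right_inj] at e
  obtain rfl := h.nd.root_eq_of_x_eq h.st.toIsSt0 hr (hi_lt T) (mul_ne_zero hc ha) e
  exact ⟨c, hc, fun a' => (e1 a').trans (cm _)⟩

/-- the root groups in `U` -/
theorem rg_le (h : Lie T y) {Y : Subgroup G} (hY : Y ∈ FinS.Rg (Gs D y) (XS y {hi T}))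
    (hU : Y ≤ Us D y) : ∃ u ∈ Us D y, ∃ r, T.N ≤ r ∧ r < 2 * T.N ∧ Y = cj(u, XS y {r}) := by
  obtain ⟨k, hk, rfl⟩ := hY
  obtain ⟨u, hu, r, hr, c, hc, e⟩ := rg_rep h hk
  refine ⟨u, hu, r, pos_of_mem h hr hc ?_, hr, Subgroup.ext fun x => ?_⟩
  · have := hU (conj_mem_cj k (mem_XS (Set.mem_singleton _) 1))
    rw [e, mul_one] at this
    simpa [mul_assoc] using mul_mem (mul_mem (inv_mem hu) this) hu
  · simp only [mem_cj_iff_exists, mem_XS_one h hr, mem_XS_one h (hi_lt T)]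
    refine ⟨fun ⟨_, ⟨a, rfl⟩, e'⟩ => ⟨_, ⟨_, rfl⟩, (e a).symm.trans e'⟩,
      fun ⟨_, ⟨a, rfl⟩, e'⟩ => ⟨_, ⟨c⁻¹ * a, rfl⟩, ?_⟩⟩
    rw [e, mul_inv_cancel_left₀ hc, e']

/-- the root elements in `U` -/
theorem rt_le (h : Lie T y) {x : G} (hx : x ∈ FinS.Rt (Gs D y) (y (hi T) 1)) (hU : x ∈ Us D y) :
    ∃ u ∈ Us D y, ∃ r, T.N ≤ r ∧ r < 2 * T.N ∧ ∃ c, c ≠ 0 ∧ x = u * y r c * u⁻¹ := by
  obtain ⟨k, hk, rfl⟩ := hx
  obtain ⟨u, hu, r, hr, c, hc, e⟩ := rg_rep h hk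
  rw [e, mul_one] at hU ⊢
  refine ⟨u, hu, r, pos_of_mem h hr hc ?_, hr, c, hc, rfl⟩
  simpa [mul_assoc] using mul_mem (mul_mem (inv_mem hu) hU) hu

/-- Scalar multiplication.  PROOF. For `x = k y_θ(a) k⁻¹` (`k ∈ Gs`) put `σ x = k y_θ(e a) k⁻¹`
(choice); well defined by `lin_hi` (for `a = 0` both sides are `1`). -/
theorem exists_sc (h : Lie T y) (e : E) : ∃ σ : G → G, ∀ k ∈ Gs D y, ∀ a,
    σ (k * y (hi T) a * k⁻¹) = k * y (hi T) (e * a) * k⁻¹ := by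
  have h0 := h.st.toIsSt0
  have key : ∀ x : G, ∃ x' : G, ∀ k ∈ Gs D y, ∀ a, x = k * y (hi T) a * k⁻¹ →
      x' = k * y (hi T) (e * a) * k⁻¹ := fun x => by
    by_cases hx : ∃ k ∈ Gs D y, ∃ a, x = k * y (hi T) a * k⁻¹
    swap
    · exact ⟨1, fun k hk a e => (hx ⟨k, hk, a, e⟩).elim⟩
    obtain ⟨k, hk, a, rfl⟩ := hx
    refine ⟨k * y (hi T) (e * a) * k⁻¹, fun k' hk' b e' => ?_⟩
    have e1 : k'⁻¹ * k * y (hi T) a * (k'⁻¹ * k)⁻¹ = y (hi T) b := by
      rw [show k'⁻¹ * k * y (hi T) a * (k'⁻¹ * k)⁻¹ = k'⁻¹ * (k * y (hi T) a * k⁻¹) * k' by group, e']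
      group
    rcases eq_or_ne a 0 with rfl | ha
    · rw [h0.x_zero (T.lt_iff.2 (hi_lt T)), mul_one, mul_inv_cancel] at e1
      rw [h.nd.eq_zero_of_x_eq_one (hi_lt T) e1.symm, mul_zero, h0.x_zero (T.lt_iff.2 (hi_lt T))]
      group
    obtain ⟨c, -, hc⟩ := lin_hi h (mul_mem (inv_mem hk') hk) ha e1
    rw [← h.nd.x_inj h0 (hi_lt T) ((hc a).symm.trans e1), mul_left_comm, ← hc]
    group
  choose σ hσ using key
  exact ⟨σ, fun k hk a => hσ _ k hk a rfl⟩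

end Cfsg.Agent.FinE
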